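import Cfsg.Agent.Lib.H04.O8.Base
import Cfsg.Agent.Lib.H04.Chev.Simple
import Cfsg.Agent.Lib.H04.Chev.Tab.D4_all
import Cfsg.Agent.Lib.H04.Chev.Tab.D4_all2
import Cfsg.Agent.Lib.H04.Chev.Tab.D4_all3
import Cfsg.Agent.Lib.H04.Chev.Tab.D4_perf

/-!
# The representation of the Lie algebra of type `D₄` on the natural module of dimension eight

The map `iot` from the coordinate module of `D₄` to the `8 × 8` matrices is equivariant: the root element `x_k(t)`
acts as the conjugation by the Siegel transformation `EE k t`.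
-/

set_option autoImplicit false
set_option linter.style.longLine false
set_option linter.unusedSimpArgs false
set_option linter.unusedSectionVars false
set_option linter.unusedVariables false
set_option maxRecDepth 100000

open Matrix Cfsg.Lie Cfsg.Agent.H04.Chev Cfsg.Agent.H24.Sg

namespace Cfsg.Agent.H04.O8

/-- the root labels of `D₄`: the pair of labels of the Siegel transformation and a sign -/
def tabL : List (ℕ × ℕ × ℤ) :=
  [(4,5,-1),(4,6,-1),(3,4,1),(4,7,-1),(2,4,-1),(1,4,1),(5,6,1),(3,5,-1),(5,7,1),(2,5,1),(3,6,1),(6,7,-1),(2,3,1),(2,7,1),(1,6,1),(1,3,-1),(1,7,-1),(1,2,-1),(0,5,1),(0,6,-1),(0,3,1),(0,7,1),(0,2,1),(0,1,1)]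

/-- the label of a code -/
def lb (n : ℕ) : Lb := if n < 4 then Sum.inl (Fin.ofNat 4 n) else Sum.inr (Fin.ofNat 4 n)

def pL (k : ℕ) : Lb := lb (tabL.getD k (0, 0, 0)).1
def qL (k : ℕ) : Lb := lb (tabL.getD k (0, 0, 0)).2.1
def sg (k : ℕ) : ℤ := (tabL.getD k (0, 0, 0)).2.2

/-- the diagonal of the fundamental coroots -/
def dgL (i : ℕ) (x : Fin 4) : ℤ := (([[1,-1,0,0],[0,1,-1,0],[0,0,1,-1],[0,0,1,1]] : List (List ℤ)).getD i []).getD x.val 0

def dgZ (i : ℕ) : Lb → ℤ
  | Sum.inl x => dgL i x
  | Sum.inr x => - dgL i x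

/-- the image of the basis vector of code `c`, with integer entries -/
def iotaZ (c : ℕ) : Matrix Lb Lb ℤ := fun a b =>
  if c < 24 then sg c * ((if a = pL c ∧ b = op (qL c) then 1 else 0) - (if a = qL c ∧ b = op (pL c) then 1 else 0))
  else if a = b then dgZ (c - 24) a else 0

/-- multiplication on the left by `iotaZ k` -/
def lN (k : ℕ) (A : Matrix Lb Lb ℤ) : Matrix Lb Lb ℤ := fun a b =>
  sg k * ((if a = pL k then A (op (qL k)) b else 0) - (if a = qL k then A (op (pL k)) b else 0))

/-- multiplication on the right by `iotaZ k` -/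
def rN (k : ℕ) (A : Matrix Lb Lb ℤ) : Matrix Lb Lb ℤ := fun a b =>
  sg k * ((if b = op (qL k) then A a (pL k) else 0) - (if b = op (pL k) then A a (qL k) else 0))

/-- the integer of a column term -/
def zz (y : CT) : ℤ := if y.neg then -(y.mag : ℤ) else (y.mag : ℤ)

/-- the part of degree `K` of a column, as an entry of a matrix -/
def rhsE (K : ℕ) : List CT → Lb → Lb → ℤ
  | [], _, _ => 0
  | y :: ys, a, b => (if y.k = K then zz y * iotaZ y.row a b else 0) + rhsE K ys a b

def labs : List Lb := [Sum.inl 0, Sum.inl 1, Sum.inl 2, Sum.inl 3, Sum.inr 0, Sum.inr 1, Sum.inr 2, Sum.inr 3]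

lemma mem_labs (a : Lb) : a ∈ labs := by
  rcases a with i | i <;> fin_cases i <;> simp [labs]

noncomputable def colD (k c : ℕ) : List CT := TD4.T.P.col k c

noncomputable def chk1 (k c : ℕ) (a b : Lb) : Bool :=
  decide (lN k (iotaZ c) a b - rN k (iotaZ c) a b = rhsE 1 (colD k c) a b) &&
  decide (-(rN k (lN k (iotaZ c)) a b) = rhsE 2 (colD k c) a b)

noncomputable def chk2 (k c : ℕ) : Bool := (colD k c).all fun y => (decide (y.k = 1) || decide (y.k = 2)) && decide (y.row < 28)

noncomputable def chkAll : Bool :=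
  (List.range 24).all fun k => (List.range 28).all fun c => chk2 k c && labs.all fun a => labs.all fun b => chk1 k c a b

set_option maxHeartbeats 0 in
theorem chkAll_true : chkAll = true := by decide +kernel

/-- the simple roots -/
def simL (i : ℕ) : ℕ := ([18, 14, 13, 12] : List ℕ).getD i 0

def chkH : Bool :=
  (List.range 4).all fun i => labs.all fun a => labs.all fun b =>
    decide (iotaZ (24 + i) a b = lN (simL i) (iotaZ (23 - simL i)) a b - rN (simL i) (iotaZ (23 - simL i)) a b)

set_option maxHeartbeats 0 in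
theorem chkH_true : chkH = true := by decide +kernel

lemma chk_spec {k c : ℕ} (hk : k < 24) (hc : c < 28) :
    (∀ y ∈ colD k c, (y.k = 1 ∨ y.k = 2) ∧ y.row < 28) ∧
    (∀ a b, lN k (iotaZ c) a b - rN k (iotaZ c) a b = rhsE 1 (colD k c) a b) ∧
    (∀ a b, -(rN k (lN k (iotaZ c)) a b) = rhsE 2 (colD k c) a b) := by
  have h := chkAll_true
  simp only [chkAll, List.all_eq_true, List.mem_range, Bool.and_eq_true] at h
  obtain ⟨h2, h1⟩ := h k hk c hc
  refine ⟨?_, ?_, ?_⟩
  · simp only [chk2, List.all_eq_true, Bool.and_eq_true, Bool.or_eq_true, decide_eq_true_eq] at h2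
    exact h2
  · intro a b
    have := h1 a (mem_labs a) b (mem_labs b)
    simp only [chk1, Bool.and_eq_true, decide_eq_true_eq] at this
    exact this.1
  · intro a b
    have := h1 a (mem_labs a) b (mem_labs b)
    simp only [chk1, Bool.and_eq_true, decide_eq_true_eq] at this
    exact this.2

lemma chkH_spec {i : ℕ} (hi : i < 4) (a b : Lb) :
    iotaZ (24 + i) a b = lN (simL i) (iotaZ (23 - simL i)) a b - rN (simL i) (iotaZ (23 - simL i)) a b := by
  have h := chkH_true
  simp only [chkH, List.all_eq_true, List.mem_range, decide_eq_true_eq] at h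
  exact h i hi a (mem_labs a) b (mem_labs b)

/-! ### The matrices -/

section Raw
variable {R : Type*} [CommRing R]

/-- the nilpotent part of a Siegel transformation -/
def Nraw (R : Type*) [CommRing R] (p q : Lb) : Matrix Lb Lb R := fun a b =>
  (if a = p ∧ b = op q then 1 else 0) - (if a = q ∧ b = op p then 1 else 0)

lemma Nraw_mul (p q : Lb) (A : Matrix Lb Lb R) (a b : Lb) :
    (Nraw R p q * A) a b = (if a = p then A (op q) b else 0) - (if a = q then A (op p) b else 0) := by
  rw [Matrix.mul_apply]
  simp only [Nraw, sub_mul, Finset.sum_sub_distrib]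
  congr 1
  · by_cases h : a = p
    · simp [h, ite_mul]
    · simp [h]
  · by_cases h : a = q
    · simp [h, ite_mul]
    · simp [h]

lemma mul_Nraw (p q : Lb) (A : Matrix Lb Lb R) (a b : Lb) :
    (A * Nraw R p q) a b = (if b = op q then A a p else 0) - (if b = op p then A a q else 0) := by
  rw [Matrix.mul_apply]
  simp only [Nraw, mul_sub, Finset.sum_sub_distrib]
  congr 1
  · by_cases h : b = op q
    · simp [h, mul_ite]
    · simp [h]
  · by_cases h : b = op p
    · simp [h, mul_ite]
    · simp [h]

end Raw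

lemma iotaZ_root {k : ℕ} (hk : k < 24) : iotaZ k = sg k • Nraw ℤ (pL k) (qL k) := by
  ext a b
  simp [iotaZ, hk, Nraw, Matrix.smul_apply]

lemma iotaZ_mul {k : ℕ} (hk : k < 24) (A : Matrix Lb Lb ℤ) : iotaZ k * A = lN k A := by
  ext a b
  rw [iotaZ_root hk, Matrix.smul_mul, Matrix.smul_apply, Nraw_mul, smul_eq_mul]
  rfl

lemma mul_iotaZ {k : ℕ} (hk : k < 24) (A : Matrix Lb Lb ℤ) : A * iotaZ k = rN k A := by
  ext a b
  rw [iotaZ_root hk, Matrix.mul_smul, Matrix.smul_apply, mul_Nraw, smul_eq_mul]
  rfl

section Fld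
variable {F : Type*} [Field F]

/-- the cast of integer matrices -/
noncomputable def phi (F : Type*) [Field F] : Matrix Lb Lb ℤ →+* Matrix Lb Lb F := (Int.castRingHom F).mapMatrix

lemma phi_apply (A : Matrix Lb Lb ℤ) (a b : Lb) : phi F A a b = ((A a b : ℤ) : F) := by
  simp [phi]

/-- the image of a basis vector -/
noncomputable def iotaF (F : Type*) [Field F] (c : ℕ) : Matrix Lb Lb F := phi F (iotaZ c)

/-- the part of degree `K` of a column -/
noncomputable def sumK (K : ℕ) (l : List CT) : Matrix Lb Lb F :=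
  (l.map fun y => if y.k = K then sv F y.neg y.mag • iotaF F y.row else 0).sum

lemma zz_cast (y : CT) : ((zz y : ℤ) : F) = sv F y.neg y.mag := by
  unfold zz sv
  cases y.neg <;> simp

/-- the part of degree `K` of a column, as a matrix -/
def rhsM (K : ℕ) (l : List CT) : Matrix Lb Lb ℤ := fun a b => rhsE K l a b

lemma phi_rhs (K : ℕ) (l : List CT) : phi F (rhsM K l) = sumK K l := by
  induction l with
  | nil =>
    ext a b
    rw [phi_apply]
    simp [rhsM, rhsE, sumK]
  | cons y ys ih =>
    have e : sumK K (y :: ys) = (if y.k = K then sv F y.neg y.mag • iotaF F y.row else 0) + sumK (F := F) K ys := by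
      simp [sumK]
    rw [e, ← ih]
    ext a b
    rw [Matrix.add_apply, phi_apply, phi_apply]
    simp only [rhsM, rhsE]
    rw [Int.cast_add]
    congr 1
    by_cases h : y.k = K
    · simp [h, iotaF, phi_apply, zz_cast, Matrix.smul_apply]
    · simp [h]

lemma comm_eq {k c : ℕ} (hk : k < 24) (hc : c < 28) :
    iotaF F k * iotaF F c - iotaF F c * iotaF F k = sumK 1 (colD k c) := by
  rw [← phi_rhs]
  unfold iotaF
  rw [← map_mul, ← map_mul, ← map_sub]
  congr 1
  ext a b
  rw [Matrix.sub_apply, iotaZ_mul hk, mul_iotaZ hk]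
  exact (chk_spec hk hc).2.1 a b

lemma sq_eq {k c : ℕ} (hk : k < 24) (hc : c < 28) :
    -(iotaF F k * iotaF F c * iotaF F k) = sumK 2 (colD k c) := by
  rw [← phi_rhs]
  unfold iotaF
  rw [← map_mul, ← map_mul, ← map_neg]
  congr 1
  ext a b
  rw [Matrix.neg_apply, iotaZ_mul hk, mul_iotaZ hk]
  exact (chk_spec hk hc).2.2 a b

/-- the column as a matrix -/
noncomputable def sumCT (t : F) (l : List CT) : Matrix Lb Lb F := (l.map fun y => y.val t • iotaF F y.row).sum

lemma sumCT_split (t : F) (l : List CT) (h : ∀ y ∈ l, y.k = 1 ∨ y.k = 2) :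
    sumCT t l = t • sumK 1 l + t ^ 2 • sumK 2 l := by
  induction l with
  | nil => simp [sumCT, sumK]
  | cons y ys ih =>
    have h1 := ih (fun z hz => h z (List.mem_cons_of_mem _ hz))
    have e1 : sumCT t (y :: ys) = y.val t • iotaF F y.row + sumCT t ys := by simp [sumCT]
    have e2 : ∀ K, sumK K (y :: ys) = (if y.k = K then sv F y.neg y.mag • iotaF F y.row else 0) + sumK (F := F) K ys := by
      intro K
      simp [sumK]
    rw [e1, e2, e2, h1, smul_add, smul_add]
    have hv : y.val t = sv F y.neg y.mag * t ^ y.k := rfl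
    rcases h y List.mem_cons_self with h2 | h2
    · simp only [h2, hv, if_true, show ¬ (1 = 2) by decide, if_false, smul_zero, zero_add, pow_one]
      rw [smul_smul, mul_comm]
      abel
    · simp only [h2, hv, if_true, show ¬ (2 = 1) by decide, if_false, smul_zero, zero_add]
      rw [smul_smul, mul_comm]
      abel

/-- conjugation of the image of a basis vector -/
lemma conj_basis {k c : ℕ} (hk : k < 24) (hc : c < 28) (t : F) :
    (1 + t • iotaF F k) * iotaF F c * (1 + (-t) • iotaF F k) = iotaF F c + sumCT t (colD k c) := by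
  rw [sumCT_split t _ (fun y hy => ((chk_spec hk hc).1 y hy).1), ← comm_eq hk hc, ← sq_eq hk hc]
  have e1 : (-t) • iotaF F k = -(t • iotaF F k) := neg_smul t _
  rw [e1]
  generalize hX : t • iotaF F k = X
  have e2 : (1 + X) * iotaF F c * (1 + -X) = iotaF F c + (X * iotaF F c - iotaF F c * X) - X * iotaF F c * X := by noncomm_ring
  have e3 : X * iotaF F c = t • (iotaF F k * iotaF F c) := by rw [← hX, smul_mul_assoc]
  have e4 : iotaF F c * X = t • (iotaF F c * iotaF F k) := by rw [← hX, mul_smul_comm]
  have e5 : X * iotaF F c * X = t ^ 2 • (iotaF F k * iotaF F c * iotaF F k) := by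
    rw [e3, ← hX, smul_mul_assoc, mul_smul_comm, smul_smul, pow_two]
  rw [e2, e5, e3, e4, smul_sub, smul_neg]
  abel

/-- the map from the coordinate module to the matrices -/
noncomputable def iot (v : chevD4.Idx → F) : Matrix Lb Lb F := ∑ i, v i • iotaF F (code chevD4 i)

lemma iot_single (i : chevD4.Idx) : iot (Pi.single i (1 : F)) = iotaF F (code chevD4 i) := by
  unfold iot
  rw [Finset.sum_eq_single i]
  · simp
  · intro j _ hj
    simp [Pi.single_apply, hj]
  · simp

lemma col_sum (l : List CT) (hl : ∀ y ∈ l, y.row < 28) (t : F) :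
    ∑ row : chevD4.Idx, colVal t l (code chevD4 row) • iotaF F (code chevD4 row) = sumCT t l := by
  induction l with
  | nil => simp [sumCT]
  | cons y ys ih =>
    have h1 := ih (fun z hz => hl z (List.mem_cons_of_mem _ hz))
    have e1 : sumCT t (y :: ys) = y.val t • iotaF F y.row + sumCT t ys := by simp [sumCT]
    rw [e1, ← h1]
    simp only [colVal_cons, add_smul]
    rw [Finset.sum_add_distrib]
    congr 1
    obtain ⟨i, hi⟩ := exists_code chevD4 (c := y.row) (by have := hl y List.mem_cons_self; exact this)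
    rw [Finset.sum_eq_single i]
    · simp [hi]
    · intro j _ hj
      have : y.row ≠ code chevD4 j := fun e => hj (code_inj chevD4 (hi.trans e)).symm
      simp [this]
    · simp

lemma col_eq (r : Fin chevD4.nroots) (col : chevD4.Idx) (t : F) :
    ∑ row : chevD4.Idx, chevD4.xMat F r t row col • iotaF F (code chevD4 row) =
      (1 + t • iotaF F r.val) * iotaF F (code chevD4 col) * (1 + (-t) • iotaF F r.val) := by
  have hr : r.val < 24 := r.isLt
  have hc : code chevD4 col < 28 := code_lt chevD4 col
  have hcol : colD r.val (code chevD4 col) = extraSpec chevD4 r.val (code chevD4 col) := TD4.checks.col r.val r.isLt _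
  rw [conj_basis hr hc]
  simp only [xMat_entry, add_smul]
  rw [Finset.sum_add_distrib, ← hcol, col_sum _ (fun y hy => ((chk_spec hr hc).1 y hy).2)]
  congr 1
  rw [Finset.sum_eq_single col]
  · simp
  · intro j _ hj
    have : ¬ code chevD4 col = code chevD4 j := fun e => hj (code_inj chevD4 e).symm
    simp [this]
  · simp

/-- the equivariance of `iot` -/
theorem iot_x (r : Fin chevD4.nroots) (t : F) (v : chevD4.Idx → F) :
    iot (chevD4.xMat F r t *ᵥ v) = (1 + t • iotaF F r.val) * iot v * (1 + (-t) • iotaF F r.val) := by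
  unfold iot
  simp only [Matrix.mulVec, dotProduct, Finset.sum_smul, Finset.mul_sum, Finset.sum_mul, mul_smul_comm, smul_mul_assoc]
  rw [Finset.sum_comm]
  refine Finset.sum_congr rfl fun col _ => ?_
  rw [← col_eq r col t, Finset.smul_sum]
  refine Finset.sum_congr rfl fun row _ => ?_
  rw [smul_smul, mul_comm]

end Fld

end Cfsg.Agent.H04.O8
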