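import Cfsg.Agent.Lib.H24.SgA

/-!
# The commutator subgroup of the isometry group of the hyperbolic form in dimension eight

It is generated by the Siegel transformations of pairs of basis vectors, over every field.
-/

set_option autoImplicit false
set_option linter.style.longLine false
set_option linter.unusedSimpArgs false
set_option linter.unusedSectionVars false
set_option linter.unusedVariables false
set_option maxRecDepth 100000

open Matrix Cfsg.Agent.H24.Sg
open scoped commutatorElement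

namespace Cfsg.Agent.H04.O8

variable {F : Type*} [Field F]

/-- the labels of the basis vectors -/
abbrev Lb : Type := Fin 4 ⊕ Fin 4

/-- the isometry group -/
abbrev OG (F : Type*) [Field F] : Type _ := ↥(Cfsg.isometryGroup F (Cfsg.quadFormPlus 4 F))

/-- the opposite label -/
def op : Lb → Lb := Sum.swap

@[simp] lemma op_op (l : Lb) : op (op l) = l := Sum.swap_swap l

@[simp] lemma op_inl (i : Fin 4) : op (Sum.inl i) = Sum.inr i := rfl
@[simp] lemma op_inr (i : Fin 4) : op (Sum.inr i) = Sum.inl i := rfl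

lemma op_ne (l : Lb) : op l ≠ l := by
  rcases l with i | i <;> simp

lemma op_inj {a b : Lb} (h : op a = op b) : a = b := by
  have := congrArg op h
  simpa using this

/-- the basis vector of a label -/
def bv (F : Type*) [Field F] (l : Lb) : Lb → F := Pi.single l 1

lemma bv_self (l : Lb) : bv F l l = 1 := by simp [bv]
lemma bv_ne {l k : Lb} (h : k ≠ l) : bv F l k = 0 := by simp [bv, Pi.single_apply, h]

lemma B_bv (v : Lb → F) (l : Lb) : B v (bv F l) = v (op l) := by
  rcases l with i | i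
  · simp [B, bv, Pi.single_apply]
  · simp [B, bv, Pi.single_apply]

lemma coord_B (v : Lb → F) (l : Lb) : v l = B v (bv F (op l)) := by
  rw [B_bv, op_op]

lemma Q_bv (l : Lb) : Cfsg.quadFormPlus 4 F (bv F l) = 0 := by
  rcases l with i | i
  · simp [Cfsg.quadFormPlus, bv, Pi.single_apply]
  · simp [Cfsg.quadFormPlus, bv, Pi.single_apply]

/-- two labels whose Siegel map is defined -/
def ok (i j : Lb) : Prop := i ≠ j ∧ i ≠ op j

instance : DecidableRel ok := fun i j => by unfold ok; infer_instance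

lemma ok.symm {i j : Lb} (h : ok i j) : ok j i := by
  refine ⟨h.1.symm, fun e => h.2 ?_⟩
  rw [e, op_op]

lemma ok.op {i j : Lb} (h : ok i j) : ok (op i) (op j) := by
  refine ⟨fun e => h.1 (op_inj e), fun e => h.2 ?_⟩
  rw [op_op] at e
  rw [← e, op_op]

lemma sing_bv {i j : Lb} (h : ok i j) : Sing (bv F i) (bv F j) :=
  ⟨Q_bv i, Q_bv j, by rw [B_bv, bv_ne]; exact fun e => h.2 e.symm⟩

/-- the Siegel transformation of two labels -/
noncomputable def XX (i j : Lb) (c : F) : OG F := if h : ok i j then X (sing_bv h) c else 1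

section
variable {i j : Lb} (h : ok i j)
include h

lemma act_XX (c : F) (v : Lb → F) : act (XX i j c) v = v + c • (v (op j) • bv F i - v (op i) • bv F j) := by
  unfold XX
  rw [dif_pos h, act_X, B_bv, B_bv]

lemma act_XX_ap (c : F) (v : Lb → F) (k : Lb) :
    act (XX i j c) v k = v k + c * ((if k = i then v (op j) else 0) - (if k = j then v (op i) else 0)) := by
  rw [act_XX h]
  by_cases h1 : k = i
  · subst h1
    have h2 : k ≠ j := h.1
    simp [bv_self, bv_ne h2, h2]
  · by_cases h2 : k = j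
    · subst h2
      simp [bv_self, bv_ne h1, h1]
    · simp [bv_ne h1, bv_ne h2, h1, h2]

lemma XX_mul (c d : F) : XX i j c * XX i j d = XX i j (c + d) := by
  unfold XX
  rw [dif_pos h, dif_pos h, dif_pos h, X_mul]

lemma XX_inv (c : F) : (XX i j c)⁻¹ = XX i j (-c) := by
  unfold XX
  rw [dif_pos h, dif_pos h, X_inv]

lemma XX_zero : XX i j (0 : F) = 1 := by
  unfold XX
  rw [dif_pos h, X_zero]

lemma XX_swap (c : F) : XX j i c = XX i j (-c) := by
  apply iso_ext
  intro v
  rw [act_XX h.symm, act_XX h]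
  module

end

lemma iso_ext_bv {g g' : OG F} (H : ∀ l, act g (bv F l) = act g' (bv F l)) : g = g' := by
  apply Subtype.ext
  apply Units.ext
  ext a b
  have := congrFun (H b) a
  simpa [act, bv] using this

/-- the index of a label -/
def idx : Lb → Fin 4 := Sum.elim id id

@[simp] lemma idx_op (l : Lb) : idx (op l) = idx l := by
  rcases l with i | i <;> rfl

@[simp] lemma idx_inl (i : Fin 4) : idx (Sum.inl i) = i := rfl
@[simp] lemma idx_inr (i : Fin 4) : idx (Sum.inr i) = i := rfl

lemma idx_eq {a b : Lb} (h : idx a = idx b) : a = b ∨ a = op b := by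
  rcases a with i | i <;> rcases b with j | j <;> simp_all

/-- the subgroup generated by the Siegel maps on the labels of index at least `a` -/
noncomputable def Sa (F : Type*) [Field F] (a : ℕ) : Subgroup (OG F) :=
  Subgroup.closure {x | ∃ (i j : Lb) (c : F), ok i j ∧ a ≤ (idx i).val ∧ a ≤ (idx j).val ∧ x = XX i j c}

lemma XX_mem {a : ℕ} {i j : Lb} (h : ok i j) (hi : a ≤ (idx i).val) (hj : a ≤ (idx j).val) (c : F) : XX i j c ∈ Sa F a :=
  Subgroup.subset_closure ⟨i, j, c, h, hi, hj, rfl⟩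

lemma Sa_le (a : ℕ) : Sa F a ≤ Sa F 0 := by
  apply Subgroup.closure_le _ |>.mpr
  rintro _ ⟨i, j, c, h, hi, hj, rfl⟩
  exact XX_mem h (Nat.zero_le _) (Nat.zero_le _) c

lemma Sa_fix {a : ℕ} {ε : OG F} (hε : ε ∈ Sa F a) {l : Lb} (hl : (idx l).val < a) : act ε (bv F l) = bv F l := by
  induction hε using Subgroup.closure_induction with
  | mem x hx =>
    obtain ⟨i, j, c, h, hi, hj, rfl⟩ := hx
    rw [act_XX h, bv_ne, bv_ne]
    · simp
    · intro e
      rw [← e, idx_op] at hl
      omega
    · intro e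
      rw [← e, idx_op] at hl
      omega
  | one => exact act_one _
  | mul x y _ _ hx hy => rw [act_mul, hy, hx]
  | inv x _ hx =>
    have := act_inv_act x (bv F l)
    rwa [hx] at this

lemma Sa_coord {a : ℕ} {ε : OG F} (hε : ε ∈ Sa F a) {l : Lb} (hl : (idx l).val < a) (v : Lb → F) : act ε v l = v l := by
  have hf : act ε (bv F (op l)) = bv F (op l) := Sa_fix hε (by rwa [idx_op])
  calc act ε v l = B (act ε v) (bv F (op l)) := coord_B _ _
    _ = B (act ε v) (act ε (bv F (op l))) := by rw [hf]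
    _ = B v (bv F (op l)) := act_B _ _ _
    _ = v l := (coord_B _ _).symm

/-! ### The elements of the rank one subgroups -/

/-- the element `w` -/
noncomputable def wr (p q : Lb) (c : F) : OG F := XX p q c * XX (op p) (op q) c⁻¹ * XX p q c

/-- the element `h` -/
noncomputable def hh (p q : Lb) (c : F) : OG F := wr p q c * wr p q (-1)

lemma wr_mem {a : ℕ} {p q : Lb} (h : ok p q) (hp : a ≤ (idx p).val) (hq : a ≤ (idx q).val) (c : F) : wr p q c ∈ Sa F a :=
  mul_mem (mul_mem (XX_mem h hp hq c) (XX_mem h.op (by simpa using hp) (by simpa using hq) _)) (XX_mem h hp hq c)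

lemma hh_mem {a : ℕ} {p q : Lb} (h : ok p q) (hp : a ≤ (idx p).val) (hq : a ≤ (idx q).val) (c : F) : hh p q c ∈ Sa F a :=
  mul_mem (wr_mem h hp hq c) (wr_mem h hp hq _)

section
variable {p q : Lb} (h : ok p q)
include h

lemma wr_ap {c : F} (hc : c ≠ 0) (v : Lb → F) (k : Lb) :
    act (wr p q c) v k = if k = p then c * v (op q) else if k = q then - (c * v (op p)) else if k = op p then c⁻¹ * v q else if k = op q then - (c⁻¹ * v p) else v k := by
  have h1 : p ≠ q := h.1
  have h2 : p ≠ op q := h.2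
  have h3 : op p ≠ op q := h.op.1
  have h4 : q ≠ op p := fun e => h2 (by rw [e, op_op])
  have h5 : p ≠ op p := (op_ne p).symm
  have h6 : q ≠ op q := (op_ne q).symm
  unfold wr
  simp only [act_mul]
  by_cases e1 : k = p
  · subst e1
    simp only [act_XX_ap h, act_XX_ap h.op, op_op, h1, h2, h3, h4, h5, h6, h1.symm, h2.symm, h3.symm, h4.symm, h5.symm, h6.symm, if_true, if_false]
    field_simp
    ring
  · by_cases e2 : k = q
    · subst e2
      simp only [act_XX_ap h, act_XX_ap h.op, op_op, h1, h2, h3, h4, h5, h6, h1.symm, h2.symm, h3.symm, h4.symm, h5.symm, h6.symm, if_true, if_false]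
      field_simp
      ring
    · by_cases e3 : k = op p
      · subst e3
        simp only [act_XX_ap h, act_XX_ap h.op, op_op, h1, h2, h3, h4, h5, h6, h1.symm, h2.symm, h3.symm, h4.symm, h5.symm, h6.symm, if_true, if_false]
        field_simp
        ring
      · by_cases e4 : k = op q
        · subst e4
          simp only [act_XX_ap h, act_XX_ap h.op, op_op, h1, h2, h3, h4, h5, h6, h1.symm, h2.symm, h3.symm, h4.symm, h5.symm, h6.symm, if_true, if_false]
          field_simp
          ring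
        · simp only [act_XX_ap h, act_XX_ap h.op, op_op, e1, e2, e3, e4, h1, h2, h3, h4, h5, h6, h1.symm, h2.symm, h3.symm, h4.symm, h5.symm, h6.symm, if_true, if_false]
          ring

lemma hh_ap {c : F} (hc : c ≠ 0) (v : Lb → F) (k : Lb) :
    act (hh p q c) v k = if k = p then c * v k else if k = q then c * v k else if k = op p then c⁻¹ * v k else if k = op q then c⁻¹ * v k else v k := by
  have h1 : p ≠ q := h.1
  have h2 : p ≠ op q := h.2
  have h3 : op p ≠ op q := h.op.1
  have h4 : q ≠ op p := fun e => h2 (by rw [e, op_op])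
  have h5 : p ≠ op p := (op_ne p).symm
  have h6 : q ≠ op q := (op_ne q).symm
  have hm : (-1 : F) ≠ 0 := by simp
  unfold hh
  rw [act_mul, wr_ap h hc]
  by_cases e1 : k = p
  · subst e1
    simp [wr_ap h hm, h1, h2, h3, h4, h5, h6, h1.symm, h2.symm, h3.symm, h4.symm, h5.symm, h6.symm]
  · by_cases e2 : k = q
    · subst e2
      simp [wr_ap h hm, e1, h1, h2, h3, h4, h5, h6, h1.symm, h2.symm, h3.symm, h4.symm, h5.symm, h6.symm]
    · by_cases e3 : k = op p
      · subst e3
        simp [wr_ap h hm, e1, e2, h1, h2, h3, h4, h5, h6, h1.symm, h2.symm, h3.symm, h4.symm, h5.symm, h6.symm]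
      · by_cases e4 : k = op q
        · subst e4
          simp [wr_ap h hm, e1, e2, e3, h1, h2, h3, h4, h5, h6, h1.symm, h2.symm, h3.symm, h4.symm, h5.symm, h6.symm]
        · simp [wr_ap h hm, e1, e2, e3, e4]

end

/-! ### Transitivity on the singular vectors -/

lemma step1 (a b : Fin 4) (hab : a < b) (v : Lb → F) (hne : v ≠ 0) (h0 : ∀ l, (idx l).val < a.val → v l = 0) :
    ∃ ε ∈ Sa F a.val, act ε v (Sum.inl a) ≠ 0 := by
  by_cases h1 : v (Sum.inl a) ≠ 0
  · exact ⟨1, one_mem _, by simpa [act_one] using h1⟩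
  have h1' : v (Sum.inl a) = 0 := not_not.mp h1
  by_cases h2 : ∃ l, l ≠ Sum.inr a ∧ v l ≠ 0
  · obtain ⟨l, hl1, hl2⟩ := h2
    have hl3 : l ≠ Sum.inl a := fun e => hl2 (by rw [e]; exact h1')
    have hi : a.val ≤ (idx l).val := by
      by_contra hc
      exact hl2 (h0 l (by omega))
    have hok : ok (Sum.inl a) (op l) := ⟨fun e => hl1 (by rw [← op_op l, ← e]; rfl), fun e => hl3 (by rw [op_op] at e; exact e.symm)⟩
    refine ⟨XX (Sum.inl a) (op l) 1, XX_mem hok (by simp) (by simpa using hi) 1, ?_⟩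
    rw [act_XX_ap hok]
    have : (Sum.inl a : Lb) ≠ op l := hok.2 ∘ fun e => by rw [op_op] at *; exact hok.1.elim (by simpa using e)
    simp [h1', hok.1, hl2]
  · have h2' : ∀ l, l ≠ Sum.inr a → v l = 0 := by
      intro l hl
      by_contra hc
      exact h2 ⟨l, hl, hc⟩
    have hv : v (Sum.inr a) ≠ 0 := by
      intro hc
      apply hne
      funext l
      by_cases e : l = Sum.inr a
      · rw [e, hc]; rfl
      · exact h2' l e
    have hba : b ≠ a := ne_of_gt hab
    have hok0 : ok (Sum.inl b) (Sum.inl a) := ⟨by simpa using hba, by simp⟩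
    have hok1 : ok (Sum.inl a) (Sum.inr b) := ⟨by simp, by simpa using hba.symm⟩
    refine ⟨XX (Sum.inl a) (Sum.inr b) 1 * XX (Sum.inl b) (Sum.inl a) 1, mul_mem (XX_mem hok1 (by simp) (by simp; omega) 1) (XX_mem hok0 (by simp; omega) (by simp) 1), ?_⟩
    rw [act_mul, act_XX_ap hok1, act_XX_ap hok0, act_XX_ap hok0]
    have e1 : v (Sum.inl b) = 0 := h2' _ (by simp)
    have e2 : v (Sum.inr b) = 0 := h2' _ (by simpa using hba)
    simp [h1', e1, e2, hba, hba.symm, hv]

lemma clear1 (a : Fin 4) (s : Finset Lb) (hs : ∀ l ∈ s, l ≠ Sum.inl a ∧ l ≠ Sum.inr a ∧ a.val ≤ (idx l).val) :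
    ∀ w : Lb → F, w (Sum.inl a) ≠ 0 → ∃ ε ∈ Sa F a.val, act ε w (Sum.inl a) = w (Sum.inl a) ∧ (∀ l ∈ s, act ε w l = 0) ∧ (∀ l, l ∉ s → l ≠ Sum.inr a → act ε w l = w l) := by
  classical
  induction s using Finset.induction_on with
  | empty =>
    intro w hw
    exact ⟨1, one_mem _, by simp [act_one], by simp, by simp [act_one]⟩
  | insert l s hl ih =>
    intro w hw
    obtain ⟨h1, h2, h3⟩ := hs l (Finset.mem_insert_self _ _)
    have hok : ok l (Sum.inr a) := ⟨h2, by simpa using h1⟩
    set c : F := - (w l / w (Sum.inl a)) with hc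
    set x := XX l (Sum.inr a) c with hx
    have ex : ∀ k, act x w k = w k + c * ((if k = l then w (Sum.inl a) else 0) - (if k = Sum.inr a then w (op l) else 0)) := by
      intro k
      rw [hx, act_XX_ap hok]
      rfl
    have e1 : act x w (Sum.inl a) = w (Sum.inl a) := by
      rw [ex]
      simp [h1.symm]
    have e2 : act x w l = 0 := by
      rw [ex]
      simp only [h2, if_true, if_false, sub_zero, hc]
      field_simp
      ring
    have e3 : ∀ k, k ≠ l → k ≠ Sum.inr a → act x w k = w k := by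
      intro k hk1 hk2
      rw [ex]
      simp [hk1, hk2]
    obtain ⟨ε, hε, r1, r2, r3⟩ := ih (fun m hm => hs m (Finset.mem_insert_of_mem hm)) (act x w) (by rw [e1]; exact hw)
    refine ⟨ε * x, mul_mem hε (XX_mem hok h3 (by simp) c), ?_, ?_, ?_⟩
    · rw [act_mul, r1, e1]
    · intro m hm
      rw [act_mul]
      rcases Finset.mem_insert.mp hm with rfl | hm
      · rw [r3 _ hl h2, e2]
      · exact r2 m hm
    · intro m hm1 hm2
      rw [act_mul]
      have hm3 : m ∉ s := fun h => hm1 (Finset.mem_insert_of_mem h)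
      have hm4 : m ≠ l := fun h => hm1 (h ▸ Finset.mem_insert_self _ _)
      rw [r3 m hm3 hm2, e3 m hm4 hm2]

/-- the labels outside the pair -/
noncomputable def outs (a : Fin 4) : Finset Lb := Finset.univ.filter fun l => l ≠ Sum.inl a ∧ l ≠ Sum.inr a ∧ a.val ≤ (idx l).val

lemma outs_spec {a : Fin 4} {l : Lb} : l ∈ outs a ↔ l ≠ Sum.inl a ∧ l ≠ Sum.inr a ∧ a.val ≤ (idx l).val := by
  simp [outs]

lemma Q_two {a : Fin 4} {v : Lb → F} (h : ∀ l, l ≠ Sum.inl a → l ≠ Sum.inr a → v l = 0) :
    Cfsg.quadFormPlus 4 F v = v (Sum.inl a) * v (Sum.inr a) := by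
  unfold Cfsg.quadFormPlus
  apply Finset.sum_eq_single a
  · intro i _ hi
    rw [h (Sum.inl i) (by simpa using hi) (by simp)]
    simp
  · simp

lemma trans1 (a b : Fin 4) (hab : a < b) (v : Lb → F) (hQ : Cfsg.quadFormPlus 4 F v = 0) (hne : v ≠ 0)
    (h0 : ∀ l, (idx l).val < a.val → v l = 0) : ∃ ε ∈ Sa F a.val, act ε v = bv F (Sum.inl a) := by
  obtain ⟨ε₁, hε₁, h1⟩ := step1 a b hab v hne h0
  obtain ⟨ε₂, hε₂, r1, r2, r3⟩ := clear1 a (outs a) (fun l hl => outs_spec.mp hl) (act ε₁ v) h1
  set v₂ := act ε₂ (act ε₁ v) with hv₂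
  have hz : ∀ l, l ≠ Sum.inl a → l ≠ Sum.inr a → v₂ l = 0 := by
    intro l h2 h3
    by_cases h4 : a.val ≤ (idx l).val
    · exact r2 l (outs_spec.mpr ⟨h2, h3, h4⟩)
    · have h5 : (idx l).val < a.val := by omega
      rw [hv₂, Sa_coord hε₂ h5, Sa_coord hε₁ h5, h0 l h5]
  have hQ2 : v₂ (Sum.inl a) * v₂ (Sum.inr a) = 0 := by
    rw [← Q_two hz, hv₂, act_Q, act_Q, hQ]
  have hα : v₂ (Sum.inl a) ≠ 0 := by
    rw [r1]
    exact h1
  have hf : v₂ (Sum.inr a) = 0 := (mul_eq_zero.mp hQ2).resolve_left hα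
  have hba : b ≠ a := ne_of_gt hab
  have hok : ok (Sum.inl a) (Sum.inl b) := ⟨by simpa using hba.symm, by simp⟩
  refine ⟨hh (Sum.inl a) (Sum.inl b) (v₂ (Sum.inl a))⁻¹ * (ε₂ * ε₁), mul_mem (hh_mem hok (by simp) (by simp; omega) _) (mul_mem hε₂ hε₁), ?_⟩
  rw [act_mul, act_mul]
  funext k
  rw [hh_ap hok (inv_ne_zero hα), ← hv₂]
  by_cases e1 : k = Sum.inl a
  · subst e1
    simp [bv_self, hα]
  · rw [bv_ne e1]
    by_cases e2 : k = Sum.inr a
    · subst e2
      simp [hf]
    · rw [hz k e1 e2]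
      simp

lemma clear2 (a : Fin 4) (s : Finset Lb) (hs : ∀ l ∈ s, l ≠ Sum.inl a ∧ l ≠ Sum.inr a ∧ a.val ≤ (idx l).val) :
    ∀ w : Lb → F, w (Sum.inr a) = 1 → ∃ ε ∈ Sa F a.val, act ε (bv F (Sum.inl a)) = bv F (Sum.inl a) ∧ act ε w (Sum.inr a) = 1 ∧ (∀ l ∈ s, act ε w l = 0) ∧ (∀ l, l ∉ s → l ≠ Sum.inl a → act ε w l = w l) := by
  classical
  induction s using Finset.induction_on with
  | empty =>
    intro w hw
    exact ⟨1, one_mem _, by simp [act_one], by simpa [act_one] using hw, by simp, by simp [act_one]⟩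
  | insert l s hl ih =>
    intro w hw
    obtain ⟨h1, h2, h3⟩ := hs l (Finset.mem_insert_self _ _)
    have hok : ok (Sum.inl a) l := ⟨h1.symm, fun e => h2 (by rw [← op_op l, ← e]; rfl)⟩
    set c : F := w l with hc
    set x := XX (Sum.inl a) l c with hx
    have ex : ∀ k, act x w k = w k + c * ((if k = Sum.inl a then w (op l) else 0) - (if k = l then w (Sum.inr a) else 0)) := by
      intro k
      rw [hx, act_XX_ap hok]
      rfl
    have e1 : act x w (Sum.inr a) = 1 := by
      rw [ex]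
      simp [h2.symm, hw]
    have e2 : act x w l = 0 := by
      rw [ex]
      simp only [h1, if_true, if_false, hw, hc]
      ring
    have e3 : ∀ k, k ≠ l → k ≠ Sum.inl a → act x w k = w k := by
      intro k hk1 hk2
      rw [ex]
      simp [hk1, hk2]
    have e4 : act x (bv F (Sum.inl a)) = bv F (Sum.inl a) := by
      rw [hx, act_XX hok, bv_ne (show op l ≠ Sum.inl a from fun e => hok.2 e.symm), bv_ne (show op (Sum.inl a) ≠ Sum.inl a from op_ne _)]
      simp
    obtain ⟨ε, hε, r0, r1, r2, r3⟩ := ih (fun m hm => hs m (Finset.mem_insert_of_mem hm)) (act x w) e1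
    refine ⟨ε * x, mul_mem hε (XX_mem hok (by simp) h3 c), ?_, ?_, ?_, ?_⟩
    · rw [act_mul, e4, r0]
    · rw [act_mul, r1]
    · intro m hm
      rw [act_mul]
      rcases Finset.mem_insert.mp hm with rfl | hm
      · rw [r3 _ hl h1, e2]
      · exact r2 m hm
    · intro m hm1 hm2
      rw [act_mul]
      have hm3 : m ∉ s := fun h => hm1 (Finset.mem_insert_of_mem h)
      have hm4 : m ≠ l := fun h => hm1 (h ▸ Finset.mem_insert_self _ _)
      rw [r3 m hm3 hm2, e3 m hm4 hm2]

lemma trans2 (a : Fin 4) (w : Lb → F) (hQ : Cfsg.quadFormPlus 4 F w = 0) (h1 : w (Sum.inr a) = 1)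
    (h0 : ∀ l, (idx l).val < a.val → w l = 0) : ∃ ε ∈ Sa F a.val, act ε (bv F (Sum.inl a)) = bv F (Sum.inl a) ∧ act ε w = bv F (Sum.inr a) := by
  obtain ⟨ε, hε, r0, r1, r2, r3⟩ := clear2 a (outs a) (fun l hl => outs_spec.mp hl) w h1
  refine ⟨ε, hε, r0, ?_⟩
  have hz : ∀ l, l ≠ Sum.inl a → l ≠ Sum.inr a → act ε w l = 0 := by
    intro l h2 h3
    by_cases h4 : a.val ≤ (idx l).val
    · exact r2 l (outs_spec.mpr ⟨h2, h3, h4⟩)
    · have h5 : (idx l).val < a.val := by omega
      rw [Sa_coord hε h5, h0 l h5]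
  have hQ2 : act ε w (Sum.inl a) * act ε w (Sum.inr a) = 0 := by
    rw [← Q_two hz, act_Q, hQ]
  rw [r1, mul_one] at hQ2
  funext k
  by_cases e1 : k = Sum.inl a
  · subst e1
    rw [hQ2, bv_ne (by simp)]
  · by_cases e2 : k = Sum.inr a
    · subst e2
      rw [r1, bv_self]
    · rw [hz k e1 e2, bv_ne e2]

/-- the elements fixing the basis vectors of index less than `a` -/
def Fix (a : ℕ) (g : OG F) : Prop := ∀ l, (idx l).val < a → act g (bv F l) = bv F l

lemma Fix_coord {a : ℕ} {g : OG F} (hg : Fix a g) {m l : Lb} (hl : (idx l).val < a) (hm : l ≠ m) : act g (bv F m) l = 0 := by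
  have hf := hg (op l) (by rwa [idx_op])
  calc act g (bv F m) l = B (act g (bv F m)) (bv F (op l)) := coord_B _ _
    _ = B (act g (bv F m)) (act g (bv F (op l))) := by rw [hf]
    _ = B (bv F m) (bv F (op l)) := act_B _ _ _
    _ = bv F m l := by rw [B_bv, op_op]
    _ = 0 := bv_ne hm

lemma bv_ne_zero (l : Lb) : bv F l ≠ 0 := by
  intro h
  have := congrFun h l
  rw [bv_self] at this
  exact one_ne_zero this

lemma reduce_step (a b : Fin 4) (hab : a < b) (g : OG F) (hg : Fix a.val g) : ∃ ε ∈ Sa F a.val, Fix (a.val + 1) (ε * g) := by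
  have hne : act g (bv F (Sum.inl a)) ≠ 0 := by
    intro h
    have h2 := act_inv_act g (bv F (Sum.inl a))
    rw [h, act_zero] at h2
    exact bv_ne_zero _ h2.symm
  have hz : ∀ l, (idx l).val < a.val → act g (bv F (Sum.inl a)) l = 0 := by
    intro l hl
    refine Fix_coord hg hl ?_
    rintro rfl
    simp at hl
  obtain ⟨ε₁, hε₁, h1⟩ := trans1 a b hab _ (by rw [act_Q, Q_bv]) hne hz
  have hg₁ : Fix a.val (ε₁ * g) := by
    intro l hl
    rw [act_mul, hg l hl, Sa_fix hε₁ hl]
  have h2 : act (ε₁ * g) (bv F (Sum.inl a)) = bv F (Sum.inl a) := by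
    rw [act_mul, h1]
  have hw1 : act (ε₁ * g) (bv F (Sum.inr a)) (Sum.inr a) = 1 := by
    calc act (ε₁ * g) (bv F (Sum.inr a)) (Sum.inr a) = B (act (ε₁ * g) (bv F (Sum.inr a))) (bv F (Sum.inl a)) := by rw [B_bv]; rfl
      _ = B (act (ε₁ * g) (bv F (Sum.inr a))) (act (ε₁ * g) (bv F (Sum.inl a))) := by rw [h2]
      _ = B (bv F (Sum.inr a)) (bv F (Sum.inl a)) := act_B _ _ _
      _ = 1 := by rw [B_bv]; exact bv_self _
  have hz2 : ∀ l, (idx l).val < a.val → act (ε₁ * g) (bv F (Sum.inr a)) l = 0 := by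
    intro l hl
    refine Fix_coord hg₁ hl ?_
    rintro rfl
    simp at hl
  obtain ⟨ε₂, hε₂, h3, h4⟩ := trans2 a _ (by rw [act_Q, Q_bv]) hw1 hz2
  refine ⟨ε₂ * ε₁, mul_mem hε₂ hε₁, ?_⟩
  intro l hl
  by_cases h5 : (idx l).val < a.val
  · rw [mul_assoc, act_mul, hg₁ l h5, Sa_fix hε₂ h5]
  · have h6 : idx l = a := Fin.ext (by omega)
    have h7 : l = Sum.inl a ∨ l = Sum.inr a := by
      rcases l with i | i
      · left; simpa using h6
      · right; simpa using h6
    rcases h7 with rfl | rfl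
    · rw [mul_assoc, act_mul, h2, h3]
    · rw [mul_assoc, act_mul, h4]

lemma reduce_all (g : OG F) : ∃ ε ∈ Sa F 0, Fix 3 (ε * g) := by
  have h0 : Fix 0 g := fun l hl => absurd hl (Nat.not_lt_zero _)
  obtain ⟨ε₁, h1, f1⟩ := reduce_step (0 : Fin 4) 1 (by decide) g h0
  obtain ⟨ε₂, h2, f2⟩ := reduce_step (1 : Fin 4) 2 (by decide) _ f1
  obtain ⟨ε₃, h3, f3⟩ := reduce_step (2 : Fin 4) 3 (by decide) _ f2
  refine ⟨ε₃ * (ε₂ * ε₁), mul_mem (Sa_le _ h3) (mul_mem (Sa_le _ h2) (Sa_le _ h1)), ?_⟩
  have e : ε₃ * (ε₂ * ε₁) * g = ε₃ * (ε₂ * (ε₁ * g)) := by group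
  rw [e]
  exact f3

/-! ### The last pair -/

/-- the label `e₃` -/
abbrev e3 : Lb := Sum.inl 3
/-- the label `f₃` -/
abbrev f3 : Lb := Sum.inr 3

lemma Fix3_cases {m : OG F} (hm : Fix 3 m) :
    (∃ α : F, α ≠ 0 ∧ act m (bv F e3) = α • bv F e3 ∧ act m (bv F f3) = α⁻¹ • bv F f3) ∨
    (∃ β : F, β ≠ 0 ∧ act m (bv F e3) = β • bv F f3 ∧ act m (bv F f3) = β⁻¹ • bv F e3) := by
  have hsmall : ∀ l : Lb, l ≠ e3 → l ≠ f3 → (idx l).val < 3 := by
    intro l h1 h2
    rcases l with i | i
    · have : i ≠ 3 := fun e => h1 (by rw [e])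
      have h3 : i.val ≠ 3 := fun e => this (Fin.ext e)
      have := i.isLt
      simp only [idx_inl]
      omega
    · have : i ≠ 3 := fun e => h2 (by rw [e])
      have h3 : i.val ≠ 3 := fun e => this (Fin.ext e)
      have := i.isLt
      simp only [idx_inr]
      omega
  set v := act m (bv F e3) with hv
  set u := act m (bv F f3) with hu
  have hz : ∀ l, l ≠ e3 → l ≠ f3 → v l = 0 := fun l h1 h2 => Fix_coord hm (hsmall l h1 h2) h1
  have hz' : ∀ l, l ≠ e3 → l ≠ f3 → u l = 0 := fun l h1 h2 => Fix_coord hm (hsmall l h1 h2) h2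
  have q1 : v e3 * v f3 = 0 := by
    rw [← Q_two hz, hv, act_Q, Q_bv]
  have q2 : u e3 * u f3 = 0 := by
    rw [← Q_two hz', hu, act_Q, Q_bv]
  have hB : v e3 * u f3 + u e3 * v f3 = 1 := by
    have h1 : B v u = 1 := by
      rw [hv, hu, act_B, B_bv]
      exact bv_self _
    unfold B at h1
    rw [← h1]
    symm
    apply Finset.sum_eq_single (3 : Fin 4)
    · intro i _ hi
      rw [hz (Sum.inl i) (by simpa using hi) (by simp), hz' (Sum.inl i) (by simpa using hi) (by simp)]
      simp
    · simp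
  have form : ∀ w : Lb → F, (∀ l, l ≠ e3 → l ≠ f3 → w l = 0) → w = w e3 • bv F e3 + w f3 • bv F f3 := by
    intro w hw
    funext k
    by_cases e1 : k = e3
    · subst e1
      simp [bv_self, bv_ne (show (e3 : Lb) ≠ f3 by simp)]
    · by_cases e2 : k = f3
      · subst e2
        simp [bv_self, bv_ne (show (f3 : Lb) ≠ e3 by simp)]
      · simp [hw k e1 e2, bv_ne e1, bv_ne e2]
  rcases mul_eq_zero.mp q1 with h0 | h0
  · right
    rw [h0, zero_mul, zero_add] at hB
    have hβ : v f3 ≠ 0 := right_ne_zero_of_mul_eq_one hB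
    have hu1 : u e3 ≠ 0 := left_ne_zero_of_mul_eq_one hB
    have hu2 : u f3 = 0 := (mul_eq_zero.mp q2).resolve_left hu1
    refine ⟨v f3, hβ, ?_, ?_⟩
    · conv_lhs => rw [form v hz, h0]
      simp
    · conv_lhs => rw [form u hz', hu2]
      have : u e3 = (v f3)⁻¹ := eq_inv_of_mul_eq_one_left hB
      simp [this]
  · left
    rw [h0, mul_zero, add_zero] at hB
    have hα : v e3 ≠ 0 := left_ne_zero_of_mul_eq_one hB
    have hu1 : u f3 ≠ 0 := right_ne_zero_of_mul_eq_one hB
    have hu2 : u e3 = 0 := (mul_eq_zero.mp q2).resolve_right hu1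
    refine ⟨v e3, hα, ?_, ?_⟩
    · conv_lhs => rw [form v hz, h0]
      simp
    · conv_lhs => rw [form u hz', hu2]
      have : u f3 = (v e3)⁻¹ := eq_inv_of_mul_eq_one_right hB
      simp [this]

/-- conjugation by a monomial element -/
lemma conj_mono {m : OG F} {π : Lb → Lb} {lam : Lb → F} (hm : ∀ l, act m (bv F l) = lam l • bv F (π l))
    {i j : Lb} (h : ok i j) (hπ : ok (π i) (π j)) (c : F) : m * XX i j c * m⁻¹ = XX (π i) (π j) (lam i * lam j * c) := by
  apply iso_ext
  intro v
  rw [act_mul, act_mul, act_XX h, act_XX hπ, act_add, act_smul, act_sub, act_smul, act_smul, hm, hm, act_act_inv]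
  set w := act m⁻¹ v with hw
  have hv : act m w = v := act_act_inv m v
  have e1 : ∀ l, w (op l) = lam l * v (op (π l)) := by
    intro l
    calc w (op l) = B w (bv F l) := (B_bv _ _).symm
      _ = B (act m w) (act m (bv F l)) := (act_B _ _ _).symm
      _ = lam l * v (op (π l)) := by rw [hv, hm, B_smul_right, B_bv]
  rw [e1, e1]
  module

/-- the group generated by all the Siegel maps -/
noncomputable abbrev E0 (F : Type*) [Field F] : Subgroup (OG F) := Sa F 0

lemma XX_E0 {i j : Lb} (h : ok i j) (c : F) : XX i j c ∈ E0 F := XX_mem h (Nat.zero_le _) (Nat.zero_le _) c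

/-- the swap of the last pair -/
def sw3 (l : Lb) : Lb := if l = e3 then f3 else if l = f3 then e3 else l

lemma sw3_ok : ∀ i j : Lb, ok i j → ok (sw3 i) (sw3 j) := by decide

/-- monomial description of an element fixing the first pairs -/
lemma Fix3_mono {m : OG F} (hm : Fix 3 m) : ∃ (π : Lb → Lb) (lam : Lb → F), (∀ l, act m (bv F l) = lam l • bv F (π l)) ∧ ∀ i j, ok i j → ok (π i) (π j) := by
  have hsmall : ∀ l : Lb, l ≠ e3 → l ≠ f3 → (idx l).val < 3 := by
    intro l h1 h2
    rcases l with i | i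
    · have : i ≠ 3 := fun e => h1 (by rw [e])
      have h3 : i.val ≠ 3 := fun e => this (Fin.ext e)
      have := i.isLt
      simp only [idx_inl]
      omega
    · have : i ≠ 3 := fun e => h2 (by rw [e])
      have h3 : i.val ≠ 3 := fun e => this (Fin.ext e)
      have := i.isLt
      simp only [idx_inr]
      omega
  rcases Fix3_cases hm with ⟨α, hα, h1, h2⟩ | ⟨β, hβ, h1, h2⟩
  · refine ⟨id, fun l => if l = e3 then α else if l = f3 then α⁻¹ else 1, ?_, fun i j h => h⟩
    intro l
    by_cases e1 : l = e3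
    · subst e1
      simpa using h1
    · by_cases e2 : l = f3
      · subst e2
        simpa using h2
      · simp [e1, e2, hm l (hsmall l e1 e2)]
  · refine ⟨sw3, fun l => if l = e3 then β else if l = f3 then β⁻¹ else 1, ?_, sw3_ok⟩
    intro l
    by_cases e1 : l = e3
    · subst e1
      simpa [sw3] using h1
    · by_cases e2 : l = f3
      · subst e2
        simpa [sw3] using h2
      · simp [e1, e2, sw3, hm l (hsmall l e1 e2)]

lemma conj_Fix3 {m : OG F} (hm : Fix 3 m) {x : OG F} (hx : x ∈ E0 F) : m * x * m⁻¹ ∈ E0 F := by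
  obtain ⟨π, lam, h1, h2⟩ := Fix3_mono hm
  induction hx using Subgroup.closure_induction with
  | mem x hx =>
    obtain ⟨i, j, c, h, _, _, rfl⟩ := hx
    rw [conj_mono h1 h (h2 i j h)]
    exact XX_E0 (h2 i j h) _
  | one => simp
  | mul x y _ _ hx hy =>
    have e : m * (x * y) * m⁻¹ = (m * x * m⁻¹) * (m * y * m⁻¹) := by group
    rw [e]
    exact mul_mem hx hy
  | inv x _ hx =>
    have e : m * x⁻¹ * m⁻¹ = (m * x * m⁻¹)⁻¹ := by group
    rw [e]
    exact inv_mem hx

/-- `E0` is normal -/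
instance E0_normal : (E0 F).Normal := by
  constructor
  intro x hx g
  obtain ⟨ε, hε, hf⟩ := reduce_all g
  have e : g * x * g⁻¹ = ε⁻¹ * ((ε * g) * x * (ε * g)⁻¹) * ε := by group
  rw [e]
  exact mul_mem (mul_mem (inv_mem hε) (conj_Fix3 hf hx)) hε

lemma sq_Fix3 {m : OG F} (hm : Fix 3 m) : m * m ∈ E0 F := by
  have hsmall : ∀ l : Lb, l ≠ e3 → l ≠ f3 → (idx l).val < 3 := by
    intro l h1 h2
    rcases l with i | i
    · have : i ≠ 3 := fun e => h1 (by rw [e])
      have h3 : i.val ≠ 3 := fun e => this (Fin.ext e)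
      have := i.isLt
      simp only [idx_inl]
      omega
    · have : i ≠ 3 := fun e => h2 (by rw [e])
      have h3 : i.val ≠ 3 := fun e => this (Fin.ext e)
      have := i.isLt
      simp only [idx_inr]
      omega
  rcases Fix3_cases hm with ⟨α, hα, h1, h2⟩ | ⟨β, hβ, h1, h2⟩
  · have ok1 : ok e3 (Sum.inl 2) := by decide
    have ok2 : ok e3 (Sum.inr 2) := by decide
    have e : m * m = hh e3 (Sum.inl 2) α * hh e3 (Sum.inr 2) α := by
      apply iso_ext_bv
      intro l
      rw [act_mul, act_mul]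
      funext k
      rw [hh_ap ok1 hα, hh_ap ok2 hα]
      have hα' : α * α⁻¹ = 1 := mul_inv_cancel₀ hα
      by_cases e1 : l = e3
      · subst e1
        rw [h1, act_smul, h1]
        by_cases k1 : k = e3
        · subst k1
          simp [bv_self]
        · simp [bv_ne k1, k1]
      · by_cases e2 : l = f3
        · subst e2
          rw [h2, act_smul, h2]
          by_cases k1 : k = f3
          · subst k1
            simp [bv_self]
          · simp [bv_ne k1, k1]
        · rw [hm l (hsmall l e1 e2), hm l (hsmall l e1 e2)]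
          by_cases k1 : k = l
          · subst k1
            have hk1 : k ≠ op e3 := by simpa using e2
            by_cases k2 : k = (Sum.inl 2 : Lb)
            · subst k2
              simp [bv_self, hα']
            · by_cases k3 : k = (Sum.inr 2 : Lb)
              · subst k3
                simp [bv_self]
                exact (inv_mul_cancel₀ hα).symm
              · simp [e1, e2, k2, k3, bv_self]
          · simp [bv_ne k1]
    rw [e]
    exact mul_mem (hh_mem ok1 (Nat.zero_le _) (Nat.zero_le _) _) (hh_mem ok2 (Nat.zero_le _) (Nat.zero_le _) _)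
  · have e : m * m = 1 := by
      apply iso_ext_bv
      intro l
      rw [act_mul, act_one]
      by_cases e1 : l = e3
      · subst e1
        rw [h1, act_smul, h2, smul_smul, mul_inv_cancel₀ hβ, one_smul]
      · by_cases e2 : l = f3
        · subst e2
          rw [h2, act_smul, h1, smul_smul, inv_mul_cancel₀ hβ, one_smul]
        · rw [hm l (hsmall l e1 e2), hm l (hsmall l e1 e2)]
    rw [e]
    exact one_mem _

/-- `O` modulo the Siegel maps is abelian -/
theorem comm_le_E0 : commutator (OG F) ≤ E0 F := by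
  have hsq : ∀ g : OG F, (QuotientGroup.mk' (E0 F) g) * (QuotientGroup.mk' (E0 F) g) = 1 := by
    intro g
    obtain ⟨ε, hε, hf⟩ := reduce_all g
    have h1 : QuotientGroup.mk' (E0 F) ε = 1 := (QuotientGroup.eq_one_iff _).mpr hε
    have h2 : QuotientGroup.mk' (E0 F) (ε * g) = QuotientGroup.mk' (E0 F) g := by
      rw [map_mul, h1, one_mul]
    rw [← h2, ← map_mul]
    exact (QuotientGroup.eq_one_iff _).mpr (sq_Fix3 hf)
  rw [commutator_def, Subgroup.commutator_le]
  intro a _ b _
  rw [← QuotientGroup.eq_one_iff]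
  show QuotientGroup.mk' (E0 F) ⁅a, b⁆ = 1
  rw [map_commutatorElement, commutatorElement_def]
  set x := QuotientGroup.mk' (E0 F) a
  set y := QuotientGroup.mk' (E0 F) b
  have hx : x * x = 1 := hsq a
  have hy : y * y = 1 := hsq b
  have hxy : (x * y) * (x * y) = 1 := by
    have := hsq (a * b)
    rwa [map_mul] at this
  have hxi : x⁻¹ = x := inv_eq_of_mul_eq_one_left hx
  have hyi : y⁻¹ = y := inv_eq_of_mul_eq_one_left hy
  rw [hxi, hyi]
  calc x * y * x * y = (x * y) * (x * y) := by group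
    _ = 1 := hxy

/-- a Siegel map is a commutator -/
lemma XX_comm {i j l : Lb} (hil : ok i l) (h1 : idx j ≠ idx i) (h2 : idx j ≠ idx l) (t u : F) :
    XX i l (t * u) = ⁅XX i j t, XX (op j) l u⁆ := by
  have a1 : i ≠ j := fun e => h1 (by rw [e])
  have a2 : i ≠ op j := fun e => h1 (by rw [e, idx_op])
  have a3 : op i ≠ j := fun e => h1 (by rw [← e, idx_op])
  have a4 : op i ≠ op j := fun e => a1 (op_inj e)
  have b1 : l ≠ j := fun e => h2 (by rw [e])
  have b2 : l ≠ op j := fun e => h2 (by rw [e, idx_op])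
  have b3 : op l ≠ j := fun e => h2 (by rw [← e, idx_op])
  have b4 : op l ≠ op j := fun e => b1 (op_inj e)
  have c1 : i ≠ l := hil.1
  have c2 : i ≠ op l := hil.2
  have c3 : op i ≠ l := fun e => hil.2 (by rw [← e, op_op])
  have c4 : op i ≠ op l := fun e => c1 (op_inj e)
  have d1 : i ≠ op i := (op_ne i).symm
  have d2 : j ≠ op j := (op_ne j).symm
  have d3 : l ≠ op l := (op_ne l).symm
  have okx : ok i j := ⟨a1, a2⟩
  have oky : ok (op j) l := ⟨b2.symm, fun e => b1.symm (op_inj e)⟩
  apply iso_ext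
  intro v
  rw [commutatorElement_def, XX_inv okx, XX_inv oky]
  simp only [act_mul]
  funext k
  simp only [act_XX_ap okx, act_XX_ap oky, act_XX_ap hil, op_op, a1, a2, a3, a4, b1, b2, b3, b4, c1, c2, c3, c4, d1, d2, d3, a1.symm, a2.symm, a3.symm, a4.symm, b1.symm, b2.symm, b3.symm, b4.symm, c1.symm, c2.symm, c3.symm, c4.symm, d1.symm, d2.symm, d3.symm, if_true, if_false]
  by_cases k1 : k = i
  · subst k1
    simp only [if_true, a1, c1, if_false, a2]
    ring
  · by_cases k2 : k = j
    · subst k2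
      simp only [if_true, a1.symm, b1.symm, k1, if_false, d2]
      ring
    · by_cases k3 : k = l
      · subst k3
        simp only [if_true, c1.symm, b1, k1, k2, if_false, b2]
        ring
      · by_cases k4 : k = op j
        · subst k4
          simp only [if_true, k1, k2, k3, if_false]
          ring
        · simp only [k1, k2, k3, k4, if_false]
          ring

lemma exists_third : ∀ i l : Lb, ok i l → ∃ j : Lb, idx j ≠ idx i ∧ idx j ≠ idx l := by decide

/-- the Siegel maps lie in the commutator subgroup -/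
theorem E0_le_comm : E0 F ≤ commutator (OG F) := by
  apply (Subgroup.closure_le _).mpr
  rintro _ ⟨i, l, c, h, _, _, rfl⟩
  obtain ⟨j, h1, h2⟩ := exists_third i l h
  rw [SetLike.mem_coe, ← mul_one c, XX_comm h h1 h2]
  exact Subgroup.commutator_mem_commutator (Subgroup.mem_top _) (Subgroup.mem_top _)

/-- **`Ω` is generated by the Siegel maps.** -/
theorem omega_eq : commutator (OG F) = E0 F := le_antisymm comm_le_E0 E0_le_comm

end Cfsg.Agent.H04.O8
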