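import Cfsg.Agent.Lib.H04.O8.Ad

/-!
# `D₄(F)` is `PΩ₈⁺(F)`, over every field
-/

set_option autoImplicit false
set_option linter.style.longLine false
set_option linter.unusedSimpArgs false
set_option linter.unusedSectionVars false
set_option linter.unusedVariables false
set_option maxRecDepth 100000

open Matrix Cfsg.Lie Cfsg.Agent.H04.Chev Cfsg.Agent.H24.Sg

namespace Cfsg.Agent.H04.O8

/-- A subgroup of a product projecting onto both factors, with kernels matching up to the centre. -/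
theorem iso_of_rel {G H : Type*} [Group G] [Group H] (R : Subgroup (G × H))
    (h1 : ∀ g, ∃ a, (g, a) ∈ R) (h2 : ∀ a, ∃ g, (g, a) ∈ R)
    (h3 : ∀ a, ((1 : G), a) ∈ R → a ∈ Subgroup.center H)
    (h4 : ∀ g a, (g, a) ∈ R → a ∈ Subgroup.center H → g = 1) :
    Nonempty (G ≃* H ⧸ Subgroup.center H) := by
  let π₁ : R →* G := (MonoidHom.fst G H).comp R.subtype
  let π₂ : R →* H ⧸ Subgroup.center H := (QuotientGroup.mk' (Subgroup.center H)).comp ((MonoidHom.snd G H).comp R.subtype)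
  have s₁ : Function.Surjective π₁ := fun g => by
    obtain ⟨a, ha⟩ := h1 g
    exact ⟨⟨(g, a), ha⟩, rfl⟩
  have s₂ : Function.Surjective π₂ := fun x => by
    obtain ⟨a, rfl⟩ := QuotientGroup.mk'_surjective _ x
    obtain ⟨g, hg⟩ := h2 a
    exact ⟨⟨(g, a), hg⟩, rfl⟩
  have hk : π₁.ker = π₂.ker := by
    ext ⟨⟨g, a⟩, h⟩
    simp only [MonoidHom.mem_ker]
    constructor
    · intro e
      have e' : g = 1 := e
      subst e'
      show (QuotientGroup.mk a : H ⧸ Subgroup.center H) = 1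
      rw [QuotientGroup.eq_one_iff]
      exact h3 a h
    · intro e
      have e' : (QuotientGroup.mk a : H ⧸ Subgroup.center H) = 1 := e
      rw [QuotientGroup.eq_one_iff] at e'
      exact h4 g a h e'
  exact ⟨(QuotientGroup.quotientKerEquivOfSurjective π₁ s₁).symm.trans ((QuotientGroup.quotientMulEquivOfEq hk).trans (QuotientGroup.quotientKerEquivOfSurjective π₂ s₂))⟩

section
variable {F : Type*} [Field F]

abbrev GD (F : Type*) [Field F] : Type _ := ↥(chevD4.group F)
abbrev OM (F : Type*) [Field F] : Type _ := ↥(commutator (OG F))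

/-- the sign in the field -/
noncomputable def sF (F : Type*) [Field F] (k : ℕ) : F := ((sg k : ℤ) : F)

lemma sg_sq : ∀ k < 24, sg k * sg k = 1 := by decide

lemma sF_sq {k : ℕ} (hk : k < 24) : sF F k * sF F k = 1 := by
  unfold sF
  rw [← Int.cast_mul, sg_sq k hk, Int.cast_one]

lemma okL : ∀ k < 24, ok (pL k) (qL k) := by decide

/-- the Siegel transformation of a root -/
noncomputable def EE (k : ℕ) (t : F) : OG F := XX (pL k) (qL k) (sF F k * t)

lemma XX_mat {p q : Lb} (h : ok p q) (c : F) :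
    (((XX p q c : OG F).1 : Matrix.GeneralLinearGroup Lb F) : Matrix Lb Lb F) = 1 + c • Nraw F p q := by
  ext a b
  have e := act_XX_ap h c (bv F b) a
  have e0 : act (XX p q c) (bv F b) a = (((XX p q c : OG F).1 : Matrix.GeneralLinearGroup Lb F) : Matrix Lb Lb F) a b := by
    simp [act, bv]
  rw [← e0, e]
  have e1 : ∀ x, bv F b x = if b = x then 1 else 0 := by
    intro x
    simp [bv, Pi.single_apply, eq_comm]
  have e2 : bv F b a = (1 : Matrix Lb Lb F) a b := by
    simp [bv, Pi.single_apply, Matrix.one_apply]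
  rw [e2, e1, e1]
  simp only [Matrix.add_apply, Matrix.smul_apply, Nraw, smul_eq_mul, ite_and]

lemma iotaF_root {k : ℕ} (hk : k < 24) : iotaF F k = sF F k • Nraw F (pL k) (qL k) := by
  ext a b
  rw [iotaF, phi_apply]
  simp only [iotaZ, hk, if_true, Matrix.smul_apply, Nraw, smul_eq_mul, sF]
  rw [Int.cast_mul, Int.cast_sub]
  congr 2
  · by_cases h1 : a = pL k ∧ b = op (qL k) <;> simp [h1]
  · by_cases h1 : a = qL k ∧ b = op (pL k) <;> simp [h1]

lemma EE_mat {k : ℕ} (hk : k < 24) (t : F) :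
    (((EE k t : OG F).1 : Matrix.GeneralLinearGroup Lb F) : Matrix Lb Lb F) = 1 + t • iotaF F k := by
  unfold EE
  rw [XX_mat (okL k hk), iotaF_root hk, smul_smul, mul_comm]

lemma EE_mem {k : ℕ} (hk : k < 24) (t : F) : EE k t ∈ commutator (OG F) := by
  rw [omega_eq]
  exact XX_E0 (okL k hk) _

lemma EE_neg_mul {k : ℕ} (hk : k < 24) (t : F) : EE k (-t) * EE k t = 1 := by
  unfold EE
  rw [XX_mul (okL k hk), mul_neg, neg_add_cancel, XX_zero (okL k hk)]

lemma pair_tab : ∀ i l : Lb, ok i l → ∃ k, k < 24 ∧ ((pL k = i ∧ qL k = l) ∨ (pL k = l ∧ qL k = i)) := by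
  decide +kernel

lemma XX_as_EE {i l : Lb} (h : ok i l) (c : F) : ∃ k, k < 24 ∧ ∃ t : F, XX i l c = EE k t := by
  obtain ⟨k, hk, ⟨rfl, rfl⟩ | ⟨rfl, rfl⟩⟩ := pair_tab i l h
  · refine ⟨k, hk, sF F k * c, ?_⟩
    unfold EE
    rw [← mul_assoc, sF_sq hk, one_mul]
  · refine ⟨k, hk, sF F k * (-c), ?_⟩
    unfold EE
    rw [← mul_assoc, sF_sq hk, one_mul, XX_swap (okL k hk)]

/-- the matrix of an element of the Chevalley group -/
def gm (g : GD F) : Matrix chevD4.Idx chevD4.Idx F := ((g : Matrix.GeneralLinearGroup chevD4.Idx F) : Matrix chevD4.Idx chevD4.Idx F)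

/-- the matrix of an element of `Ω` -/
def am (a : OM F) : Matrix Lb Lb F := (((a : OG F).1 : Matrix.GeneralLinearGroup Lb F) : Matrix Lb Lb F)

@[simp] lemma gm_one : gm (1 : GD F) = 1 := rfl
@[simp] lemma am_one : am (1 : OM F) = 1 := rfl
lemma gm_mul (g h : GD F) : gm (g * h) = gm g * gm h := rfl
lemma am_mul (a b : OM F) : am (a * b) = am a * am b := rfl

lemma am_inv_mul (a : OM F) : am a⁻¹ * am a = 1 := by
  rw [← am_mul, inv_mul_cancel, am_one]

lemma am_mul_inv (a : OM F) : am a * am a⁻¹ = 1 := by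
  rw [← am_mul, mul_inv_cancel, am_one]

lemma gm_mul_inv (g : GD F) : gm g * gm g⁻¹ = 1 := by
  rw [← gm_mul, mul_inv_cancel, gm_one]

lemma gm_inv_mul (g : GD F) : gm g⁻¹ * gm g = 1 := by
  rw [← gm_mul, inv_mul_cancel, gm_one]

/-- the root element in the Chevalley group -/
noncomputable def xD (k : ℕ) (hk : k < 24) (t : F) : GD F := ⟨xG TD4.checks k t, xG_mem_group TD4.checks hk t⟩

/-- the element of `Ω` of a root -/
noncomputable def eD (k : ℕ) (hk : k < 24) (t : F) : OM F := ⟨EE k t, EE_mem hk t⟩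

/-- the subgroup of pairs -/
noncomputable def RR (F : Type*) [Field F] : Subgroup (GD F × OM F) :=
  Subgroup.closure {pr | ∃ (k : ℕ) (hk : k < 24) (t : F), pr = (xD k hk t, eD k hk t)}

lemma gm_xD {k : ℕ} (hk : k < 24) (t : F) : gm (xD k hk t) = chevD4.xMat F ⟨k, hk⟩ t :=
  x_eq_xMat chevD4 k hk t

lemma am_eD {k : ℕ} (hk : k < 24) (t : F) : am (eD k hk t) = 1 + t • iotaF F k := EE_mat hk t

lemma rel_gen {k : ℕ} (hk : k < 24) (t : F) (v : chevD4.Idx → F) :
    am (eD k hk t) * iot v = iot (gm (xD k hk t) *ᵥ v) * am (eD k hk t) := by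
  have h1 : (1 + (-t) • iotaF F k) * (1 + t • iotaF F k) = 1 := by
    rw [← am_eD hk, ← am_eD hk, ← am_mul]
    have : eD k hk (-t) * eD k hk t = (1 : OM F) := Subtype.ext (EE_neg_mul hk t)
    rw [this, am_one]
  rw [gm_xD, iot_x, am_eD]
  simp only []
  rw [mul_assoc ((1 + t • iotaF F k) * iot v), h1, mul_one]

/-- the relation of the pairs -/
theorem RR_rel {g : GD F} {a : OM F} (h : (g, a) ∈ RR F) (v : chevD4.Idx → F) :
    am a * iot v = iot (gm g *ᵥ v) * am a := by
  have key : ∀ pr ∈ RR F, ∀ v : chevD4.Idx → F, am pr.2 * iot v = iot (gm pr.1 *ᵥ v) * am pr.2 := by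
    intro pr hpr
    induction hpr using Subgroup.closure_induction with
    | mem x hx =>
      obtain ⟨k, hk, t, rfl⟩ := hx
      exact rel_gen hk t
    | one =>
      intro v
      simp
    | mul x y _ _ ihx ihy =>
      intro v
      have e1 : (x * y).2 = x.2 * y.2 := rfl
      have e2 : (x * y).1 = x.1 * y.1 := rfl
      rw [e1, e2, am_mul, gm_mul, mul_assoc, ihy v, ← mul_assoc, ihx, Matrix.mulVec_mulVec, mul_assoc]
    | inv x _ ih =>
      intro v
      have e1 : (x⁻¹).2 = x.2⁻¹ := rfl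
      have e2 : (x⁻¹).1 = x.1⁻¹ := rfl
      rw [e1, e2]
      have h1 := ih (gm x.1⁻¹ *ᵥ v)
      rw [Matrix.mulVec_mulVec, gm_mul_inv, Matrix.one_mulVec] at h1
      calc am x.2⁻¹ * iot v = am x.2⁻¹ * (iot v * am x.2) * am x.2⁻¹ := by
            rw [mul_assoc (am x.2⁻¹), mul_assoc (iot v), am_mul_inv, mul_one]
        _ = am x.2⁻¹ * (am x.2 * iot (gm x.1⁻¹ *ᵥ v)) * am x.2⁻¹ := by rw [h1]
        _ = iot (gm x.1⁻¹ *ᵥ v) * am x.2⁻¹ := by
            rw [← mul_assoc (am x.2⁻¹), am_inv_mul, one_mul]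
  exact key (g, a) h v

lemma RR_gen {k : ℕ} (hk : k < 24) (t : F) : (xD k hk t, eD k hk t) ∈ RR F :=
  Subgroup.subset_closure ⟨k, hk, t, rfl⟩

theorem RR_left (g : GD F) : ∃ a, (g, a) ∈ RR F := by
  have key : ∀ x (hx : x ∈ Subgroup.closure {g : Matrix.GeneralLinearGroup chevD4.Idx F | ∃ (r : Fin chevD4.nroots) (t : F), (g : Matrix chevD4.Idx chevD4.Idx F) = chevD4.xMat F r t}),
      ∃ a, (((⟨x, hx⟩ : GD F)), a) ∈ RR F := by
    intro x hx
    induction hx using Subgroup.closure_induction with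
    | mem x hx =>
      obtain ⟨r, t, hr⟩ := hx
      have hk : r.val < 24 := r.isLt
      refine ⟨eD r.val hk t, ?_⟩
      have e : x = xG TD4.checks r.val t := Units.ext (by
        rw [xG_val, hr, x_eq_xMat chevD4 r.val r.isLt])
      subst e
      exact RR_gen hk t
    | one => exact ⟨1, one_mem _⟩
    | mul x y _ _ ihx ihy =>
      obtain ⟨a, ha⟩ := ihx
      obtain ⟨b, hb⟩ := ihy
      exact ⟨a * b, mul_mem ha hb⟩
    | inv x _ ih =>
      obtain ⟨a, ha⟩ := ih
      exact ⟨a⁻¹, inv_mem ha⟩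
  exact key g.1 g.2

theorem RR_right (a : OM F) : ∃ g, (g, a) ∈ RR F := by
  have key : ∀ x (hx : x ∈ E0 F), ∃ (h : x ∈ commutator (OG F)) (g : GD F), (g, (⟨x, h⟩ : OM F)) ∈ RR F := by
    intro x hx
    unfold E0 Sa at hx
    induction hx using Subgroup.closure_induction with
    | mem x hx =>
      obtain ⟨i, j, c, h, _, _, rfl⟩ := hx
      obtain ⟨k, hk, t, e⟩ := XX_as_EE h c
      rw [e]
      exact ⟨EE_mem hk t, _, RR_gen hk t⟩
    | one => exact ⟨one_mem _, 1, one_mem _⟩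
    | mul x y _ _ ihx ihy =>
      obtain ⟨h1, g1, hg1⟩ := ihx
      obtain ⟨h2, g2, hg2⟩ := ihy
      exact ⟨mul_mem h1 h2, g1 * g2, mul_mem hg1 hg2⟩
    | inv x _ ih =>
      obtain ⟨h1, g1, hg1⟩ := ih
      exact ⟨inv_mem h1, g1⁻¹, inv_mem hg1⟩
  have ha : a.1 ∈ E0 F := by
    rw [← omega_eq]
    exact a.2
  obtain ⟨_, g, hg⟩ := key a.1 ha
  exact ⟨g, hg⟩

lemma iot_root {k : ℕ} (hk : k < 24) : iot (Pi.single (Sum.inr ⟨k, hk⟩) (1 : F)) = iotaF F k := by
  rw [iot_single]
  rfl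

/-- commuting with the images of the root vectors gives commuting with the Siegel maps -/
lemma comm_EE {a : OM F} (h : ∀ k, k < 24 → am a * iotaF F k = iotaF F k * am a) {k : ℕ} (hk : k < 24) (t : F) :
    a.1 * EE k t = EE k t * a.1 := by
  apply Subtype.ext
  apply Units.ext
  change am a * _ = _ * am a
  rw [EE_mat hk, mul_add, add_mul, mul_one, one_mul, mul_smul_comm, smul_mul_assoc, h k hk]

theorem RR_center {a : OM F} (h : ((1 : GD F), a) ∈ RR F) : a ∈ Subgroup.center (OM F) := by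
  have h1 : ∀ k, k < 24 → am a * iotaF F k = iotaF F k * am a := by
    intro k hk
    have := RR_rel h (Pi.single (Sum.inr ⟨k, hk⟩) (1 : F))
    rw [gm_one, Matrix.one_mulVec, iot_root hk] at this
    exact this
  have h2 : E0 F ≤ Subgroup.centralizer {a.1} := by
    unfold E0 Sa
    apply (Subgroup.closure_le _).mpr
    rintro _ ⟨i, j, c, hij, _, _, rfl⟩
    obtain ⟨k, hk, t, e⟩ := XX_as_EE hij c
    rw [e, SetLike.mem_coe, Subgroup.mem_centralizer_iff]
    rintro _ rfl
    exact comm_EE h1 hk t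
  rw [Subgroup.mem_center_iff]
  intro b
  apply Subtype.ext
  have hb : b.1 ∈ E0 F := by
    rw [← omega_eq]
    exact b.2
  have := Subgroup.mem_centralizer_iff.mp (h2 hb) a.1 rfl
  exact this.symm

/-- the kernel of the map `iot`, as a subgroup -/
def KK (F : Type*) [Field F] : Subgroup (GD F) where
  carrier := {g | ∀ v : chevD4.Idx → F, iot (gm g *ᵥ v) = iot v}
  mul_mem' := by
    intro g h hg hh v
    rw [gm_mul, ← Matrix.mulVec_mulVec, hg, hh]
  one_mem' := by
    intro v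
    rw [gm_one, Matrix.one_mulVec]
  inv_mem' := by
    intro g hg v
    have := hg (gm g⁻¹ *ᵥ v)
    rw [Matrix.mulVec_mulVec, gm_mul_inv, Matrix.one_mulVec] at this
    exact this.symm

lemma am_cancel {a : OM F} {A B : Matrix Lb Lb F} (h : A * am a = B * am a) : A = B := by
  have := congrArg (· * am a⁻¹) h
  simp only [mul_assoc, am_mul_inv, mul_one] at this
  exact this

instance KK_normal : (KK F).Normal := by
  constructor
  intro g hg h v
  obtain ⟨b, hb⟩ := RR_left h
  have h1 := RR_rel hb (gm g *ᵥ (gm h⁻¹ *ᵥ v))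
  have h2 := RR_rel hb (gm h⁻¹ *ᵥ v)
  rw [Matrix.mulVec_mulVec (v := v) (gm h) (gm h⁻¹), gm_mul_inv, Matrix.one_mulVec] at h2
  rw [hg] at h1
  have e : gm (h * g * h⁻¹) *ᵥ v = gm h *ᵥ gm g *ᵥ gm h⁻¹ *ᵥ v := by
    rw [gm_mul, gm_mul, Matrix.mulVec_mulVec, Matrix.mulVec_mulVec, mul_assoc]
  rw [e]
  apply am_cancel (a := b)
  rw [← h1, h2]

lemma simple_D4 : IsSimpleGroup (GD F) :=
  (simple_of TD4.checks TD4.checks2 TD4.checks3 TD4.checks4 (fun h => absurd h (not_G2_B2 (by simp)))).1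

lemma comm_int : (iotaZ 0 * iotaZ 23 - iotaZ 23 * iotaZ 0) (Sum.inl 0) (Sum.inl 0) = -1 := by
  rw [Matrix.sub_apply, iotaZ_mul (by decide), mul_iotaZ (by decide)]
  decide

lemma not_comm : iotaF F 0 * iotaF F 23 ≠ iotaF F 23 * iotaF F 0 := by
  intro h
  have h1 : phi F (iotaZ 0 * iotaZ 23 - iotaZ 23 * iotaZ 0) = 0 := by
    rw [map_sub, map_mul, map_mul]
    exact sub_eq_zero.mpr h
  have h2 := congrFun (congrFun h1 (Sum.inl 0)) (Sum.inl 0)
  rw [phi_apply, comm_int] at h2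
  simp at h2

theorem KK_bot : KK F = ⊥ := by
  have := simple_D4 (F := F)
  rcases IsSimpleGroup.eq_bot_or_eq_top_of_normal (KK F) KK_normal with h | h
  · exact h
  · exfalso
    have h0 : xD 0 (by decide) (1 : F) ∈ KK F := by
      rw [h]
      exact Subgroup.mem_top _
    have h1 := rel_gen (k := 0) (by decide) (1 : F) (Pi.single (Sum.inr ⟨23, by decide⟩) (1 : F))
    rw [h0, am_eD, iot_root (by decide)] at h1
    apply not_comm (F := F)
    simpa [mul_add, add_mul] using h1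

lemma simL_lt : ∀ i < 4, simL i < 24 ∧ 23 - simL i < 24 := by decide

lemma commute_iota {a : OM F} (h : a ∈ Subgroup.center (OM F)) {c : ℕ} (hc : c < 28) : Commute (am a) (iotaF F c) := by
  have h1 : ∀ k, k < 24 → Commute (am a) (iotaF F k) := by
    intro k hk
    have h2 := Subgroup.mem_center_iff.mp h (eD k hk 1)
    have h3 := congrArg am h2
    rw [am_mul, am_mul, am_eD, mul_add, add_mul, mul_one, one_mul, one_smul, add_right_inj] at h3
    exact h3.symm
  by_cases hc2 : c < 24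
  · exact h1 c hc2
  · obtain ⟨i, rfl⟩ : ∃ i, c = 24 + i := ⟨c - 24, by omega⟩
    have hi : i < 4 := by omega
    have hs : simL i < 24 ∧ 23 - simL i < 24 := simL_lt i hi
    have e : iotaF F (24 + i) = iotaF F (simL i) * iotaF F (23 - simL i) - iotaF F (23 - simL i) * iotaF F (simL i) := by
      unfold iotaF
      rw [← map_mul, ← map_mul, ← map_sub]
      congr 1
      ext a b
      rw [Matrix.sub_apply, iotaZ_mul hs.1, mul_iotaZ hs.1]
      exact chkH_spec hi a b
    rw [e]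
    exact Commute.sub_right ((h1 _ hs.1).mul_right (h1 _ hs.2)) ((h1 _ hs.2).mul_right (h1 _ hs.1))

theorem RR_inj {g : GD F} {a : OM F} (h : (g, a) ∈ RR F) (ha : a ∈ Subgroup.center (OM F)) : g = 1 := by
  have h1 : g ∈ KK F := by
    intro v
    apply am_cancel (a := a)
    rw [← RR_rel h v]
    have h2 : Commute (am a) (iot v) := by
      unfold iot
      apply Commute.sum_right
      intro i _
      exact (commute_iota ha (code_lt chevD4 i)).smul_right _
    exact h2.eq
  rw [KK_bot] at h1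
  exact Subgroup.mem_bot.mp h1

/-- **`D₄(F) ≅ PΩ₈⁺(F)`** -/
theorem d4_iso : Nonempty (↥(chevD4.group F) ≃* Cfsg.POmega F (Cfsg.quadFormPlus 4 F)) :=
  iso_of_rel (RR F) RR_left RR_right (fun _ h => RR_center h) (fun _ _ h ha => RR_inj h ha)

end

end Cfsg.Agent.H04.O8
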